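import Cfsg.Agent.H617.Pb.Defs
import Cfsg.Agent.H133.PB.Basic

/-!
# S4822, B11 (helper406): own characteristic

* `card_le_orb` : `A`-invariant class functions: if `B₀(S)` contains all irreducible characters but one, and there are
  `n + 1` classes of elements under `A` then `orb M (Inn S) A ≥ n`;
* `row_of_own` : the row from `row_of_mu_top`.
-/

set_option autoImplicit false
set_option linter.unusedSectionVars false
open Cfsg

namespace Cfsg.Agent.H406.Pb

open Cfsg.Agent.H617.Pb Cfsg.Agent.Characters.Core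

universe u

variable {Γ : Type u} [Group Γ] [Finite Γ]

/-- the indicator function of the `A`-class of `g` on `N` -/
noncomputable def ind (N A : Subgroup Γ) (g : Γ) : ↥N → ℂ :=
  open Classical in fun x => if ∃ a ∈ A, (x : Γ) = a * g * a⁻¹ then 1 else 0

theorem ind_inv {N A : Subgroup Γ} (g : Γ) {c : Γ} (hc : c ∈ A) (x y : ↥N) (h : (y : Γ) = c * x * c⁻¹) :
    ind N A g y = ind N A g x := by
  have key : (∃ a ∈ A, (y : Γ) = a * g * a⁻¹) ↔ ∃ a ∈ A, (x : Γ) = a * g * a⁻¹ := by
    constructor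
    · rintro ⟨a, ha, h1⟩
      refine ⟨c⁻¹ * a, mul_mem (inv_mem hc) ha, ?_⟩
      have h2 : (x : Γ) = c⁻¹ * y * c := by rw [h]; group
      rw [h2, h1]
      group
    · rintro ⟨a, ha, h1⟩
      refine ⟨c * a, mul_mem hc ha, ?_⟩
      rw [h, h1]
      group
  unfold ind
  by_cases h1 : ∃ a ∈ A, (x : Γ) = a * g * a⁻¹
  · rw [if_pos h1, if_pos (key.2 h1)]
  · rw [if_neg h1, if_neg (fun h2 => h1 (key.1 h2))]

/-- `A`-invariance of functions on `N` -/
def AInv (N A : Subgroup Γ) (F : ↥N → ℂ) : Prop :=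
  ∀ c ∈ A, ∀ x y : ↥N, (y : Γ) = c * x * c⁻¹ → F y = F x

theorem classInner_inv {N A : Subgroup Γ} [Fintype ↥N] (hn : ∀ c ∈ A, ∀ x ∈ N, c * x * c⁻¹ ∈ N) {F : ↥N → ℂ}
    (hF : AInv N A F) {θ θ' : ↥N → ℂ} {c : Γ} (hc : c ∈ A)
    (h : ∀ x y : ↥N, (y : Γ) = c * x * c⁻¹ → θ' y = θ x) : classInner F θ' = classInner F θ := by
  rw [classInner_def, classInner_def]
  congr 1
  let e : ↥N ≃ ↥N :=
    { toFun := fun x => ⟨c * x * c⁻¹, hn c hc x x.2⟩
      invFun := fun x => ⟨c⁻¹ * x * c, by
        have := hn c⁻¹ (inv_mem hc) x x.2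
        rwa [inv_inv] at this⟩
      left_inv := fun x => Subtype.ext (by simp only; group)
      right_inv := fun x => Subtype.ext (by simp only; group) }
  rw [← Equiv.sum_comp e]
  refine Finset.sum_congr rfl fun x _ => ?_
  rw [hF c hc x (e x) rfl, h x (e x) rfl]

/-- **Counting orbits.** -/
theorem card_le_orb {M : Ideal AlgInt} (N A : Subgroup Γ) (hNA : N ≤ A) (hn : ∀ c ∈ A, ∀ x ∈ N, c * x * c⁻¹ ∈ N)
    (hB : ∃ St : IrrCharacter ↥N, ∀ χ : IrrCharacter ↥N, χ ≠ St → χ ∈ principalBlock M ↥N)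
    {ι : Type} [Fintype ι] (g : ι → Γ) (hgN : ∀ i, g i ∈ N)
    (hsep : ∀ i j, (∃ a ∈ A, a * g i * a⁻¹ = g j) → i = j) : Fintype.card ι ≤ orb M N A + 1 := by
  classical
  have := Fintype.ofFinite ↥N
  have : Finite (IrrCharacter ↥N) := finite_irr
  have := Fintype.ofFinite (IrrCharacter ↥N)
  obtain ⟨St, hSt⟩ := hB
  let r : ↥(principalBlock M ↥N) → ↥(principalBlock M ↥N) → Prop := fun θ θ' =>
    ∃ c ∈ A, ∀ x y : ↥N, (y : Γ) = c * x * c⁻¹ →
      ((θ' : IrrCharacter ↥N) : ↥N → ℂ) y = ((θ : IrrCharacter ↥N) : ↥N → ℂ) x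
  have hQf : Finite (Quot r) := Finite.of_surjective (Quot.mk r) Quot.mk_surjective
  have := Fintype.ofFinite (Quot r)
  let F : (ι → ℂ) → ↥N → ℂ := fun c => ∑ i, c i • ind N A (g i)
  have hFinv : ∀ c, AInv N A (F c) := by
    intro c a ha x y hxy
    show (∑ i, c i • ind N A (g i)) y = (∑ i, c i • ind N A (g i)) x
    rw [Finset.sum_apply, Finset.sum_apply]
    refine Finset.sum_congr rfl fun i _ => ?_
    rw [Pi.smul_apply, Pi.smul_apply, ind_inv (g i) ha x y hxy]
  have hFadd : ∀ c d, F (c + d) = F c + F d := by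
    intro c d
    show (∑ i, (c + d) i • ind N A (g i)) = (∑ i, c i • ind N A (g i)) + ∑ i, d i • ind N A (g i)
    rw [← Finset.sum_add_distrib]
    refine Finset.sum_congr rfl fun i _ => ?_
    rw [Pi.add_apply, add_smul]
  have hFsmul : ∀ (k : ℂ) c, F (k • c) = k • F c := by
    intro k c
    show (∑ i, (k • c) i • ind N A (g i)) = k • ∑ i, c i • ind N A (g i)
    rw [Finset.smul_sum]
    refine Finset.sum_congr rfl fun i _ => ?_
    rw [Pi.smul_apply, smul_eq_mul, mul_smul]
  have hwell : ∀ c (θ θ' : ↥(principalBlock M ↥N)), r θ θ' →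
      classInner (F c) ((θ : IrrCharacter ↥N) : ↥N → ℂ) = classInner (F c) ((θ' : IrrCharacter ↥N) : ↥N → ℂ) := by
    rintro c θ θ' ⟨a, ha, h⟩
    exact (classInner_inv hn (hFinv c) ha h).symm
  let Φ : (ι → ℂ) →ₗ[ℂ] (Quot r → ℂ) × ℂ :=
    { toFun := fun c => (Quot.lift (fun θ : ↥(principalBlock M ↥N) => classInner (F c) ((θ : IrrCharacter ↥N) : ↥N → ℂ))
          (hwell c), classInner (F c) (St : ↥N → ℂ))
      map_add' := fun c d => by
        refine Prod.ext (funext fun x => ?_) ?_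
        · induction x using Quot.ind with
          | mk θ =>
            show classInner (F (c + d)) _ = classInner (F c) _ + classInner (F d) _
            rw [hFadd, classInner_add_left]
        · show classInner (F (c + d)) _ = classInner (F c) _ + classInner (F d) _
          rw [hFadd, classInner_add_left]
      map_smul' := fun k c => by
        refine Prod.ext (funext fun x => ?_) ?_
        · induction x using Quot.ind with
          | mk θ =>
            show classInner (F (k • c)) _ = k * classInner (F c) _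
            rw [hFsmul, classInner_smul_left]
        · show classInner (F (k • c)) _ = k * classInner (F c) _
          rw [hFsmul, classInner_smul_left] }
  have hΦ : Function.Injective Φ := by
    rw [injective_iff_map_eq_zero]
    intro c hc
    have h1 : ∀ χ : IrrCharacter ↥N, classInner (F c) (χ : ↥N → ℂ) = 0 := by
      intro χ
      by_cases h : χ = St
      · rw [h]
        exact congrArg Prod.snd hc
      · exact congrFun (congrArg Prod.fst hc) (Quot.mk r ⟨χ, hSt χ h⟩)
    have hcl : IsClassFunction ↥N (F c) := by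
      intro x y
      exact hFinv c y (hNA y.2) x _ rfl
    have h2 : F c = 0 := by
      rw [classFunction_eq_sum hcl]
      exact Finset.sum_eq_zero fun χ _ => by rw [h1, zero_smul]
    funext i
    have h3 := congrFun h2 ⟨g i, hgN i⟩
    have h4 : F c ⟨g i, hgN i⟩ = c i := by
      show (∑ j, c j • ind N A (g j)) ⟨g i, hgN i⟩ = c i
      rw [Finset.sum_apply, Finset.sum_eq_single i]
      · have h5 : ind N A (g i) ⟨g i, hgN i⟩ = 1 := if_pos ⟨1, one_mem _, by simp⟩
        rw [Pi.smul_apply, h5, smul_eq_mul, mul_one]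
      · intro j _ hji
        have h5 : ind N A (g j) ⟨g i, hgN i⟩ = 0 := if_neg fun ⟨a, ha, h⟩ => hji (hsep j i ⟨a, ha, h.symm⟩)
        rw [Pi.smul_apply, h5, smul_zero]
      · intro h
        exact absurd (Finset.mem_univ i) h
    rw [h4] at h3
    exact h3
  have h1 := LinearMap.finrank_le_finrank_of_injective hΦ
  rw [Module.finrank_fintype_fun_eq_card, Module.finrank_prod, Module.finrank_fintype_fun_eq_card,
    Module.finrank_self, ← Nat.card_eq_fintype_card (α := Quot r)] at h1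
  exact h1

section simple

variable {S : Type u} [Group S] [Finite S] [IsSimpleGroup S] {p : ℕ} [Fact p.Prime]

theorem conj_inj (hS : ¬ IsMulCommutative S) : Function.Injective (MulAut.conj : S →* MulAut S) := by
  rw [injective_iff_map_eq_one]
  intro x hx
  by_contra hx1
  rcases (inferInstance : (MulAut.conj : S →* MulAut S).ker.Normal).eq_bot_or_eq_top with h3 | h3
  · apply hx1
    rw [← Subgroup.mem_bot, ← h3]
    exact hx
  · apply hS
    refine ⟨⟨fun a b => ?_⟩⟩
    have h4 : a ∈ (MulAut.conj : S →* MulAut S).ker := h3 ▸ Subgroup.mem_top a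
    have h5 : a * b * a⁻¹ = b := by
      have := congrArg (fun f : MulAut S => f b) (MonoidHom.mem_ker.1 h4)
      simpa using this
    calc a * b = a * b * a⁻¹ * a := by group
      _ = b * a := by rw [h5]

theorem conj_apply' (a : MulAut S) (s : S) : a * MulAut.conj s * a⁻¹ = MulAut.conj (a s) := by
  ext x
  show a (s * a⁻¹ x * s⁻¹) = a s * x * (a s)⁻¹
  rw [map_mul, map_mul, map_inv]
  have : a (a⁻¹ x) = x := a.apply_symm_apply x
  rw [this]

/-- **The orbits in own characteristic.** -/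
theorem le_orb_own (hS : ¬ IsMulCommutative S) (hp : p ∣ Nat.card S) {M : Ideal AlgInt} (hM : IsPModular p M)
    (hB : ∃ St : IrrCharacter S, ∀ χ : IrrCharacter S, χ ≠ St → χ ∈ principalBlock M S)
    (f : Fin p → S) (hf : ∀ i, ¬ p ∣ orderOf (f i)) (hf2 : ∀ i j, (∃ a : MulAut S, a (f i) = f j) → i = j)
    (A : Subgroup (MulAut S)) (hA : Inn S ≤ A) : p ≤ orb M (Inn S) A := by
  have hMp : M.IsPrime := Cfsg.Agent.Blocks.Local.isPrime_of_isPModular hM
  have hinj := conj_inj hS
  obtain ⟨v, hv⟩ := exists_prime_orderOf_dvd_card' p hp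
  let e : S ≃* ↥(Inn S) := MonoidHom.ofInjective hinj
  have hB' : ∃ St : IrrCharacter ↥(Inn S), ∀ χ : IrrCharacter ↥(Inn S), χ ≠ St → χ ∈ principalBlock M ↥(Inn S) := by
    obtain ⟨St, hSt⟩ := hB
    refine ⟨⟨(St : S → ℂ) ∘ e.symm, isIrr_comp e.symm.toMonoidHom e.symm.surjective St.2⟩, fun χ hχ => ?_⟩
    have h1 : (⟨(χ : ↥(Inn S) → ℂ) ∘ e, isIrr_comp e.toMonoidHom e.surjective χ.2⟩ : IrrCharacter S) ∈
        principalBlock M S := by
      apply hSt
      rintro h2
      apply hχ
      apply Subtype.ext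
      rw [← h2]
      funext x
      show (χ : ↥(Inn S) → ℂ) x = (χ : ↥(Inn S) → ℂ) (e (e.symm x))
      rw [e.apply_symm_apply]
    have h2 := Cfsg.Agent.H133.PB.mem_principalBlock_comp e.symm.toMonoidHom e.symm.surjective h1
    have h3 : χ = ⟨((χ : ↥(Inn S) → ℂ) ∘ e) ∘ e.symm.toMonoidHom,
        isIrr_comp e.symm.toMonoidHom e.symm.surjective (isIrr_comp e.toMonoidHom e.surjective χ.2)⟩ := by
      apply Subtype.ext
      funext x
      show (χ : ↥(Inn S) → ℂ) x = (χ : ↥(Inn S) → ℂ) (e (e.symm x))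
      rw [e.apply_symm_apply]
    rw [h3]
    exact h2
  let g : Option (Fin p) → S := fun o => o.elim v f
  have hsep : ∀ i j, (∃ a ∈ A, a * MulAut.conj (g i) * a⁻¹ = MulAut.conj (g j)) → i = j := by
    rintro i j ⟨a, -, h⟩
    rw [conj_apply'] at h
    have h1 := hinj h
    have hord : ∀ x : S, orderOf (a x) = orderOf x := fun x => orderOf_injective a.toMonoidHom a.injective x
    rcases i with _ | i <;> rcases j with _ | j
    · rfl
    · exfalso
      apply hf j
      have h2 : orderOf (f j) = p := by rw [← hv, ← hord v]; exact congrArg orderOf h1.symm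
      rw [h2]
    · exfalso
      apply hf i
      have h2 : orderOf (f i) = p := by rw [← hv, ← hord (f i)]; exact congrArg orderOf h1
      rw [h2]
    · rw [hf2 i j ⟨a, h1⟩]
  have h := card_le_orb (M := M) (Inn S) A hA (fun c _ x hx => by
    obtain ⟨s, rfl⟩ := hx
    exact ⟨c s, (conj_apply' c s).symm⟩) hB' (fun i => MulAut.conj (g i)) (fun i => ⟨g i, rfl⟩) hsep
  rw [Fintype.card_option, Fintype.card_fin] at h
  omega

/-- **B11a.** -/
theorem row_of_own
    (row_of_mu_top : (∀ M : Ideal AlgInt, IsPModular p M → ∀ A : Subgroup (MulAut S), Adm p S A →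
      4 * (p - 1) ≤ orb M (Inn S) A ^ 2) → Row p S)
    (hS : ¬ IsMulCommutative S) (hp : p ^ 2 ∣ Nat.card S)
    (hB : ∀ M : Ideal AlgInt, IsPModular p M → ∃ St : IrrCharacter S, ∀ χ : IrrCharacter S, χ ≠ St →
      χ ∈ principalBlock M S)
    (f : Fin p → S) (hf : ∀ i, ¬ p ∣ orderOf (f i)) (hf2 : ∀ i j, (∃ a : MulAut S, a (f i) = f j) → i = j) :
    Row p S := by
  refine row_of_mu_top fun M hM A hA => ?_
  have h1 := le_orb_own hS ((dvd_pow_self p two_ne_zero).trans hp) hM (hB M hM) f hf hf2 A hA.1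
  have h2 : p ^ 2 ≤ orb M (Inn S) A ^ 2 := Nat.pow_le_pow_left h1 2
  refine le_trans ?_ h2
  obtain ⟨k, hk⟩ : ∃ k, p = k + 1 := ⟨p - 1, by have := (Fact.out : p.Prime).pos; omega⟩
  subst hk
  rw [Nat.add_sub_cancel]
  zify
  nlinarith [sq_nonneg ((k : ℤ) - 1)]

end simple

end Cfsg.Agent.H406.Pb
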